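import Mathlib
import Cfsg.Agent.Lib.Helper36.Stu.Defs

set_option autoImplicit false

/-!
Package QUAD of the project STU: the quadratic relation `q z² = τ (1 + z ∑ c i)`.
-/

namespace Cfsg.Agent.Lib.Helper98.Stu

open scoped ComplexConjugate

universe v

/-- Unit complex numbers whose sum has the largest possible norm, one of them being `1`, are all
equal to `1`. -/
theorem all_one_of_norm_sum {ι : Type v} [Fintype ι] (c : ι → ℂ) (i₀ : ι)
    (hc : ∀ i, ‖c i‖ = 1) (h0 : c i₀ = 1)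
    (hS : ‖∑ i, c i‖ = (Fintype.card ι : ℝ)) : ∀ i, c i = 1 := by
  obtain ⟨n, hn⟩ : ∃ n : ℝ, n = (Fintype.card ι : ℝ) := ⟨_, rfl⟩
  obtain ⟨S, hSdef⟩ : ∃ S : ℂ, S = ∑ i, c i := ⟨_, rfl⟩
  rw [← hSdef, ← hn] at hS
  have hn1 : 1 ≤ n := by
    rw [hn]
    have : 0 < Fintype.card ι := Fintype.card_pos_iff.mpr ⟨i₀⟩
    exact_mod_cast this
  have hS2 : S.re * S.re + S.im * S.im = n * n := by
    have e1 := Complex.normSq_eq_norm_sq S
    rw [Complex.normSq_apply, hS] at e1
    rw [e1]; ring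
  have hci : ∀ i, (c i).re * (c i).re + (c i).im * (c i).im = 1 := by
    intro i
    have e1 := Complex.normSq_eq_norm_sq (c i)
    rw [Complex.normSq_apply, hc i] at e1
    rw [e1]; ring
  have hle : ∀ i, S.re * (c i).re + S.im * (c i).im ≤ n := by
    intro i
    have h1 := hci i
    nlinarith [sq_nonneg (S.re * (c i).im - S.im * (c i).re),
      sq_nonneg (S.re * (c i).re + S.im * (c i).im - n),
      sq_nonneg (S.re * (c i).re + S.im * (c i).im + n)]
  have hre : S.re = ∑ i, (c i).re := by rw [hSdef, Complex.re_sum]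
  have him : S.im = ∑ i, (c i).im := by rw [hSdef, Complex.im_sum]
  have hsum : ∑ i, (n - (S.re * (c i).re + S.im * (c i).im)) = 0 := by
    rw [Finset.sum_sub_distrib, Finset.sum_add_distrib, ← Finset.mul_sum, ← Finset.mul_sum,
      ← hre, ← him, Finset.sum_const, Finset.card_univ, nsmul_eq_mul, ← hn, hS2]
    ring
  have heach : ∀ i, S.re * (c i).re + S.im * (c i).im = n := by
    intro i
    have h1 := (Finset.sum_eq_zero_iff_of_nonneg (fun i _ => by
      have := hle i; linarith)).mp hsum i (Finset.mem_univ i)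
    linarith
  have hSre : S.re = n := by
    have h1 := heach i₀
    rw [h0] at h1
    simpa using h1
  have hSim : S.im = 0 := by
    have h1 : S.im * S.im = 0 := by rw [hSre] at hS2; linarith
    exact mul_self_eq_zero.mp h1
  intro i
  have h1 := heach i
  rw [hSre, hSim] at h1
  have h2 : (c i).re = 1 := by
    have hn0 : n ≠ 0 := by linarith
    have h3 : n * (c i).re = n * 1 := by linarith
    exact mul_left_cancel₀ hn0 h3
  have h3 : (c i).im = 0 := by
    have h4 := hci i
    rw [h2] at h4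
    have h5 : (c i).im * (c i).im = 0 := by linarith
    exact mul_self_eq_zero.mp h5
  apply Complex.ext
  · rw [h2]; rfl
  · rw [h3]; rfl

theorem pkgQuad : Cfsg.Agent.Lib.Helper36.Stu.PkgQuad.{v} := by
  intro ι _ q z τ c i₀ hq hτ hc h0 heq
  obtain ⟨S, hSdef⟩ : ∃ S : ℂ, S = ∑ i, c i := ⟨_, rfl⟩
  rw [← hSdef] at heq
  obtain ⟨Q, hQ⟩ : ∃ Q : ℝ, Q = (q : ℝ) := ⟨_, rfl⟩
  obtain ⟨r, hr⟩ : ∃ r : ℝ, r = ‖z‖ := ⟨_, rfl⟩
  have hcard : (Fintype.card ι : ℝ) = Q - 1 := by
    have : (Fintype.card ι : ℝ) + 1 = (q : ℝ) := by exact_mod_cast hq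
    rw [hQ]; linarith
  have hpos : 0 < Fintype.card ι := Fintype.card_pos_iff.mpr ⟨i₀⟩
  have hQ2 : 2 ≤ Q := by
    have : (1 : ℝ) ≤ (Fintype.card ι : ℝ) := by exact_mod_cast hpos
    linarith
  have hr0 : 0 ≤ r := by rw [hr]; exact norm_nonneg z
  -- norms of both sides
  have hnorm : Q * r ^ 2 = ‖1 + z * S‖ := by
    have e := congrArg norm heq
    rw [norm_mul, norm_pow, norm_mul, hτ, one_mul, Complex.norm_natCast] at e
    rw [hQ, hr]; exact e
  have hSle : ‖S‖ ≤ Q - 1 := by
    rw [hSdef, ← hcard]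
    calc ‖∑ i, c i‖ ≤ ∑ i, ‖c i‖ := norm_sum_le _ _
      _ = ∑ _i : ι, (1 : ℝ) := by apply Finset.sum_congr rfl; intro i _; exact hc i
      _ = (Fintype.card ι : ℝ) := by rw [Finset.sum_const, Finset.card_univ, nsmul_eq_mul, mul_one]
  have hS0 : 0 ≤ ‖S‖ := norm_nonneg S
  have htri : 1 - r * ‖S‖ ≤ ‖1 + z * S‖ := by
    have e1 : ‖(1 : ℂ)‖ ≤ ‖1 + z * S‖ + ‖z * S‖ := by
      have e2 : (1 : ℂ) = (1 + z * S) - z * S := by ring
      calc ‖(1 : ℂ)‖ = ‖(1 + z * S) - z * S‖ := by rw [← e2]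
        _ ≤ ‖1 + z * S‖ + ‖z * S‖ := norm_sub_le _ _
    rw [norm_one, norm_mul, ← hr] at e1
    linarith
  have hmain : 1 ≤ Q * r := by
    by_contra hlt
    push Not at hlt
    have h1 : r * ‖S‖ ≤ r * (Q - 1) := mul_le_mul_of_nonneg_left hSle hr0
    nlinarith
  have hQ0 : (0 : ℝ) < Q := by linarith
  refine ⟨?_, ?_⟩
  · rw [← hQ, ← hr, div_le_iff₀ hQ0]
    linarith
  · intro heqr
    rw [← hQ, ← hr] at heqr
    have hQr : Q * r = 1 := by rw [heqr]; field_simp
    have hr_pos : 0 < r := by rw [heqr]; positivity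
    -- the norm of S is as large as possible
    have hnorm2 : ‖1 + z * S‖ = r := by
      rw [← hnorm]
      have : Q * r ^ 2 = (Q * r) * r := by ring
      rw [this, hQr, one_mul]
    have hSeq : ‖S‖ = Q - 1 := by
      apply le_antisymm hSle
      have h1 : 1 - r * ‖S‖ ≤ r := le_trans htri (le_of_eq hnorm2)
      have h2 : r * (Q - 1) ≤ r * ‖S‖ := by nlinarith
      exact le_of_mul_le_mul_left h2 hr_pos
    have hall : ∀ i, c i = 1 := by
      apply all_one_of_norm_sum c i₀ hc h0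
      rw [← hSdef, hSeq, hcard]
    have hSval : S = (q : ℂ) - 1 := by
      rw [hSdef]
      have e1 : ∑ i, c i = ∑ _i : ι, (1 : ℂ) := by
        apply Finset.sum_congr rfl; intro i _; exact hall i
      rw [e1, Finset.sum_const, Finset.card_univ, nsmul_eq_mul, mul_one]
      have : (Fintype.card ι : ℂ) + 1 = (q : ℂ) := by exact_mod_cast hq
      rw [← this]; ring
    -- now z
    have hz1 : z.re * z.re + z.im * z.im = r * r := by
      have e1 := Complex.normSq_eq_norm_sq z
      rw [Complex.normSq_apply, ← hr] at e1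
      rw [e1]; ring
    have hw : 1 + z * S = ((1 + z.re * (Q - 1) : ℝ) : ℂ) + ((z.im * (Q - 1) : ℝ) : ℂ) * Complex.I := by
      rw [hSval]
      apply Complex.ext
      · simp [hQ]
      · simp [hQ]
    have hz2 : (1 + z.re * (Q - 1)) * (1 + z.re * (Q - 1)) + (z.im * (Q - 1)) * (z.im * (Q - 1))
        = r * r := by
      have e1 := Complex.normSq_eq_norm_sq (1 + z * S)
      rw [hnorm2, hw, Complex.normSq_add_mul_I] at e1
      rw [← sq, ← sq, e1]; ring
    have hr2 : Q * Q * (r * r) = 1 := by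
      have : Q * Q * (r * r) = (Q * r) * (Q * r) := by ring
      rw [this, hQr, one_mul]
    have a1 : Q * Q * (z.re * z.re + z.im * z.im) = 1 := by rw [hz1, hr2]
    have hx : Q * z.re = -1 := by
      have hne : 2 * (Q - 1) * Q ≠ 0 := by
        have : 0 < 2 * (Q - 1) * Q := by nlinarith
        exact this.ne'
      have e3 : (2 * (Q - 1) * Q) * (Q * z.re) = (2 * (Q - 1) * Q) * (-1) := by
        have a2 : Q * Q * ((1 + z.re * (Q - 1)) * (1 + z.re * (Q - 1))
            + (z.im * (Q - 1)) * (z.im * (Q - 1))) = 1 := by rw [hz2, hr2]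
        linear_combination a2 - (Q - 1) ^ 2 * a1
      exact mul_left_cancel₀ hne e3
    have hy : z.im = 0 := by
      have a3 : (Q * z.im) * (Q * z.im) = 0 := by
        have : (Q * z.re) * (Q * z.re) = 1 := by rw [hx]; norm_num
        nlinarith
      have a4 : Q * z.im = 0 := mul_self_eq_zero.mp a3
      rcases mul_eq_zero.mp a4 with h | h
      · exact absurd h hQ0.ne'
      · exact h
    have hq0 : (q : ℂ) ≠ 0 := by
      have : (q : ℝ) ≠ 0 := by rw [← hQ]; exact hQ0.ne'
      exact_mod_cast this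
    have hzval : z = -1 / (q : ℂ) := by
      have e1 : z = ((-1 / Q : ℝ) : ℂ) := by
        apply Complex.ext
        · rw [Complex.ofReal_re]
          field_simp
          linarith
        · rw [Complex.ofReal_im]; exact hy
      rw [e1, hQ]
      push_cast
      ring
    refine ⟨hzval, ?_, hall⟩
    rw [hzval, hSval] at heq
    have e1 : (q : ℂ) * (-1 / (q : ℂ)) ^ 2 = 1 / (q : ℂ) := by field_simp
    have e2 : 1 + (-1 / (q : ℂ)) * ((q : ℂ) - 1) = 1 / (q : ℂ) := by field_simp; ring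
    rw [e1, e2] at heq
    have e3 : τ * (1 / (q : ℂ)) = 1 * (1 / (q : ℂ)) := by rw [← heq, one_mul]
    exact mul_right_cancel₀ (one_div_ne_zero hq0) e3

end Cfsg.Agent.Lib.Helper98.Stu
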