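import Mathlib
import Cfsg.Agent.Lib.Helper36.Stu.Defs

set_option autoImplicit false

/-!
Package TORUS of the project STU: a spherical function is multiplicative along elements
normalising `U`, with values of absolute value one there.
-/

namespace Cfsg.Agent.Lib.Helper98.Stu

open scoped ComplexConjugate

universe u

theorem finsum_const_subgroup {G : Type u} [Group G] [Finite G] (U : Subgroup G) (c : ℂ) :
    ∑ᶠ _u : U, c = (Nat.card U : ℂ) * c := by
  classical
  have : Fintype U := Fintype.ofFinite U
  rw [finsum_eq_sum_of_fintype, Finset.sum_const, Finset.card_univ, Nat.card_eq_fintype_card,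
    nsmul_eq_mul]

theorem pkgTorus : Cfsg.Agent.Lib.Helper36.Stu.PkgTorus.{u} := by
  intro G _ _ U f hf h hn hn'
  have hU : (Nat.card U : ℂ) ≠ 0 := by
    exact_mod_cast (Nat.card_pos (α := U)).ne'
  have h1 : ∀ g, f (h * g) = f h * f g := by
    intro g
    have e := hf.fe h g
    have e2 : ∑ᶠ u : U, f (h * (u : G) * g) = ∑ᶠ _u : U, f (h * g) := by
      apply finsum_congr
      intro u
      have e3 : h * (u : G) * g = (h * (u : G) * h⁻¹) * (h * g) := by group
      rw [e3]
      exact hf.left _ _ (hn _ u.2)
    rw [e2, finsum_const_subgroup] at e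
    exact mul_left_cancel₀ hU e
  have h2 : ∀ g, f (g * h) = f g * f h := by
    intro g
    have e := hf.fe g h
    have e2 : ∑ᶠ u : U, f (g * (u : G) * h) = ∑ᶠ _u : U, f (g * h) := by
      apply finsum_congr
      intro u
      have e3 : g * (u : G) * h = (g * h) * (h⁻¹ * (u : G) * h) := by group
      rw [e3]
      exact hf.right _ _ (hn' _ u.2)
    rw [e2, finsum_const_subgroup] at e
    exact mul_left_cancel₀ hU e
  refine ⟨h1, h2, ?_⟩
  have e := h1 h⁻¹
  rw [mul_inv_cancel, hf.one, hf.inv] at e
  have e3 : (Complex.normSq (f h) : ℂ) = 1 := by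
    rw [← Complex.mul_conj]; exact e.symm
  have e4 : Complex.normSq (f h) = 1 := by exact_mod_cast e3
  rw [Complex.normSq_eq_norm_sq] at e4
  have hnn := norm_nonneg (f h)
  nlinarith

end Cfsg.Agent.Lib.Helper98.Stu
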